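import Cfsg.Agent.H813.SaxSpK

/-!
# Subgroups of `Sp_2(64).2 < Sp_4(8)` (helper901, for S3502)
-/

set_option autoImplicit false
set_option linter.unusedSectionVars false

namespace Cfsg.Agent.H901.EightExt

open Matrix Module Cfsg Cfsg.Geo Cfsg.Agent.H262.El Cfsg.Agent.H876 Cfsg.Agent.H931 Cfsg.Agent.ClassicalGeometry.SympBasic
open Cfsg.Agent.H813.SaxSp
open scoped MatrixGroups

variable {F : Type*} [Field F] [Fintype F] [CharP F 2]

local notation "I4" => (Fin 2 ⊕ Fin 2)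

variable {K : Subalgebra F (Matrix I4 I4 F)}

/-- an element commuting with an involution fixes the vectors fixed by the involution. -/
theorem fix_of_comm (hK : IsFieldSubalgebra 2 K) (hsa : IsSelfAdjointFor (sympForm 2 F) K)
    (halt : ∀ k ∈ K, ∀ v : (I4 → F), (sympForm 2 F) (k *ᵥ v) v = 0) {i g : GL I4 F} (hi : i ∈ spGL 2 F)
    (hg : g ∈ spGL 2 F) (hiK : ∀ k ∈ K, (i : Matrix I4 I4 F) * k = k * i)
    (hgK : ∀ k ∈ K, (g : Matrix I4 I4 F) * k = k * g) (hi1 : i ≠ 1) (hc : i * g = g * i) {v : I4 → F} (hv : v ≠ 0)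
    (hiv : (i : Matrix I4 I4 F) *ᵥ v = v) : (g : Matrix I4 I4 F) *ᵥ v = v := by
  have h2 : (2 : F) = 0 := CharTwo.two_eq_zero
  have h2v : ∀ x : I4 → F, x + x = 0 := fun x => by rw [← two_smul F, h2, zero_smul]
  -- the fixed space of `i` is `K v`
  have hfix : ∀ x : I4 → F, (i : Matrix I4 I4 F) *ᵥ x = x → ∃ k ∈ K, k *ᵥ v = x := by
    intro x hx
    by_contra hno
    push Not at hno
    apply hi1
    apply Units.ext
    apply Matrix.ext_of_mulVec_single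
    intro j
    obtain ⟨k, hk, l, hl, h4⟩ := surj_two hK hv hno (Pi.single j 1)
    rw [h4, Matrix.mulVec_add, Matrix.mulVec_mulVec, Matrix.mulVec_mulVec, hiK k hk, hiK l hl,
      ← Matrix.mulVec_mulVec, ← Matrix.mulVec_mulVec, hiv, hx, Units.val_one, Matrix.one_mulVec]
  have hcv : (i : Matrix I4 I4 F) *ᵥ ((g : Matrix I4 I4 F) *ᵥ v) = (g : Matrix I4 I4 F) *ᵥ v := by
    rw [Matrix.mulVec_mulVec, ← Units.val_mul, hc, Units.val_mul, ← Matrix.mulVec_mulVec, hiv]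
  obtain ⟨k, hk, hkv⟩ := hfix _ hcv
  -- a complement
  obtain ⟨w, hw⟩ := exists_not hK v
  obtain ⟨l, hl, hlv⟩ := stab_diff hK hsa halt hi hiK hv hiv w
  have hiw : (i : Matrix I4 I4 F) *ᵥ w = w + l *ᵥ v := by
    rw [← hlv]
    have := h2v w
    calc (i : Matrix I4 I4 F) *ᵥ w = (i : Matrix I4 I4 F) *ᵥ w + (w + w) := by rw [this, add_zero]
      _ = _ := by abel
  have hl0 : l ≠ 0 := by
    rintro rfl
    rw [Matrix.zero_mulVec, add_zero] at hiw
    obtain ⟨k', hk', h3⟩ := hfix w hiw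
    exact hw k' hk' h3
  obtain ⟨a, ha, b, hb, hgw⟩ := surj_two hK hv hw ((g : Matrix I4 I4 F) *ᵥ w)
  -- `g w = a v + b w`
  have h5 : (g : Matrix I4 I4 F) *ᵥ ((i : Matrix I4 I4 F) *ᵥ w) = (i : Matrix I4 I4 F) *ᵥ ((g : Matrix I4 I4 F) *ᵥ w) := by
    rw [Matrix.mulVec_mulVec, Matrix.mulVec_mulVec, ← Units.val_mul, ← Units.val_mul, hc]
  have h6 : (l * k) *ᵥ v = (b * l) *ᵥ v := by
    have e1 : (g : Matrix I4 I4 F) *ᵥ ((i : Matrix I4 I4 F) *ᵥ w) = a *ᵥ v + b *ᵥ w + (l * k) *ᵥ v := by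
      rw [hiw, Matrix.mulVec_add, hgw, Matrix.mulVec_mulVec, hgK l hl, ← Matrix.mulVec_mulVec, ← hkv,
        Matrix.mulVec_mulVec]
    have e2 : (i : Matrix I4 I4 F) *ᵥ ((g : Matrix I4 I4 F) *ᵥ w) = a *ᵥ v + b *ᵥ w + (b * l) *ᵥ v := by
      rw [hgw, Matrix.mulVec_add, Matrix.mulVec_mulVec, hiK a ha, ← Matrix.mulVec_mulVec, hiv, Matrix.mulVec_mulVec,
        hiK b hb, ← Matrix.mulVec_mulVec, hiw, Matrix.mulVec_add, Matrix.mulVec_mulVec, add_assoc]
    rw [e1, e2] at h5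
    exact add_left_cancel h5
  have h7 : (⟨l * k, K.mul_mem hl hk⟩ : K) = ⟨b * l, K.mul_mem hb hl⟩ := inj_one hK hv h6
  have h8' : l * k = b * l := congrArg Subtype.val h7
  have h8 : l * k = l * b := h8'.trans (hK.comm b hb l hl)
  have hkb : k = b := by
    obtain ⟨y, hy, hyl⟩ := hK.inv l hl hl0
    have hyl' : y * l = 1 := by rw [hK.comm y hy l hl, hyl]
    rw [← one_mul k, ← one_mul b, ← hyl', mul_assoc, mul_assoc, h8]
  subst hkb
  -- the form
  have h9 : ∀ c ∈ K, sympForm 2 F ((c * (k * k - 1)) *ᵥ w) v = 0 := by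
    intro c hc'
    have e1 : sympForm 2 F ((g : Matrix I4 I4 F) *ᵥ (c *ᵥ w)) ((g : Matrix I4 I4 F) *ᵥ v) = sympForm 2 F (c *ᵥ w) v :=
      mem_spGL_iff.1 hg _ _
    have e2 : (g : Matrix I4 I4 F) *ᵥ (c *ᵥ w) = (c * a) *ᵥ v + (c * k) *ᵥ w := by
      rw [Matrix.mulVec_mulVec, hgK c hc', ← Matrix.mulVec_mulVec, hgw, Matrix.mulVec_add, Matrix.mulVec_mulVec,
        Matrix.mulVec_mulVec]
    rw [e2, ← hkv, sympForm_add_left, ← hsa k hk, ← hsa k hk, Matrix.mulVec_mulVec, Matrix.mulVec_mulVec,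
      halt _ (K.mul_mem hk (K.mul_mem hc' ha)), zero_add] at e1
    have e3 : (c * (k * k - 1)) *ᵥ w = (k * (c * k)) *ᵥ w - c *ᵥ w := by
      rw [← Matrix.sub_mulVec]
      congr 1
      rw [mul_sub, mul_one, ← mul_assoc k c k, hK.comm k hk c hc', mul_assoc]
    rw [e3, sympForm_sub_left, e1, sub_self]
  have hkk : k * k - 1 = 0 := by
    by_contra hne
    obtain ⟨y, hy, hxy⟩ := hK.inv (k * k - 1) (K.sub_mem (K.mul_mem hk hk) K.one_mem) hne
    apply hv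
    apply eq_zero_of_forall_sympForm_left
    intro x
    obtain ⟨c, hc1, d, hd, rfl⟩ := surj_two hK hv hw x
    have e1 := h9 (d * y) (K.mul_mem hd hy)
    rw [mul_assoc, hK.comm y hy _ (K.sub_mem (K.mul_mem hk hk) K.one_mem), hxy, mul_one] at e1
    rw [sympForm_add_left, halt c hc1, e1, add_zero]
  have hk1 : k = 1 := by
    have e1 : (k - 1) * (k - 1) = 0 := by
      have e2 : (k - 1) * (k - 1) = (k * k - 1) - (k - 1) - (k - 1) := by noncomm_ring
      rw [e2, hkk]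
      have e3 : k - 1 + (k - 1) = 0 := by
        rw [← two_smul F, h2, zero_smul]
      rw [zero_sub, ← neg_add', e3, neg_zero]
    by_contra hne
    obtain ⟨y, hy, hxy⟩ := hK.inv (k - 1) (K.sub_mem hk K.one_mem) (sub_ne_zero.2 hne)
    apply hne
    rw [← sub_eq_zero]
    calc k - 1 = (k - 1) * ((k - 1) * y) := by rw [hxy, mul_one]
      _ = 0 := by rw [← mul_assoc, e1, zero_mul]
  rw [← hkv, hk1, Matrix.one_mulVec]

theorem card_nz : Nat.card {v : I4 → F // v ≠ 0} = Fintype.card F ^ 4 - 1 := by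
  have h3 := Set.ncard_add_ncard_compl ({0} : Set (I4 → F))
  rw [Set.ncard_singleton, card_V] at h3
  have h4 : Nat.card {v : I4 → F // v ≠ 0} = ({0} : Set (I4 → F))ᶜ.ncard := rfl
  omega

variable (F) in
theorem odd_nz : Odd (Fintype.card F ^ 4 - 1) := by
  obtain ⟨f, -, hf⟩ := FiniteField.card F 2
  have h1 : Even (Fintype.card F ^ 4) := by
    rw [hf]
    exact (Even.pow_of_ne_zero even_two f.pos.ne').pow_of_ne_zero (by norm_num)
  have h2 : 0 < Fintype.card F ^ 4 := pow_pos Fintype.card_pos 4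
  exact Nat.Even.sub_odd h2 h1 odd_one

section card

variable (hK : IsFieldSubalgebra 2 K) (hsa : IsSelfAdjointFor (sympForm 2 F) K)
  (halt : ∀ k ∈ K, ∀ v : (I4 → F), (sympForm 2 F) (k *ᵥ v) v = 0) {R : Subgroup (GL I4 F)} (hR : R ≤ spGL 2 F)
  (hRK : ∀ c ∈ R, ∀ k ∈ K, (c : Matrix I4 I4 F) * k = k * c)

include hK hsa halt hR hRK

/-- `R` is transitive on the non-zero vectors; the stabilizers have order `|R| / (q⁴ - 1)`. -/
theorem trans_of_dvd (hd : Fintype.card F ^ 4 - 1 ∣ Nat.card R) {v : I4 → F} (hv : v ≠ 0) :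
    (∀ w : I4 → F, w ≠ 0 → ∃ g ∈ R, (g : Matrix I4 I4 F) *ᵥ v = w) ∧
    ∃ A : Subgroup (GL I4 F), A ≤ R ∧ (∀ a ∈ A, (a : Matrix I4 I4 F) *ᵥ v = v) ∧
      (∀ a ∈ R, (a : Matrix I4 I4 F) *ᵥ v = v → a ∈ A) ∧ Nat.card R = (Fintype.card F ^ 4 - 1) * Nat.card A := by
  classical
  have hf2 : Fact (Nat.Prime 2) := ⟨Nat.prime_two⟩
  let _ := vact' R
  let S := MulAction.stabilizer R (⟨v, hv⟩ : {v : I4 → F // v ≠ 0})
  have hS : IsPGroup 2 S := by
    rintro ⟨g, hg⟩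
    refine ⟨1, ?_⟩
    have h1 : ((g : GL I4 F) : Matrix I4 I4 F) *ᵥ v = v := congrArg Subtype.val hg
    have h2 := stab_sq hK hsa halt (hR g.2) (hRK g g.2) hv h1
    rw [pow_one]
    exact Subtype.ext (Subtype.ext h2)
  obtain ⟨j, hj⟩ := hS.exists_card_eq
  have h1 := S.card_mul_index
  have h2 : S.index = Nat.card (MulAction.orbit R (⟨v, hv⟩ : {v : I4 → F // v ≠ 0})) :=
    MulAction.index_stabilizer R _
  have h3 : Nat.card (MulAction.orbit R (⟨v, hv⟩ : {v : I4 → F // v ≠ 0})) ≤ Fintype.card F ^ 4 - 1 := by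
    rw [← card_nz]
    exact Nat.card_le_card_of_injective _ Subtype.val_injective
  have h4 : Fintype.card F ^ 4 - 1 ∣ S.index := by
    rw [← h1, hj] at hd
    exact Nat.Coprime.dvd_of_dvd_mul_left (Nat.Coprime.pow_right j (Nat.coprime_two_right.2 (odd_nz F))) hd
  have hidx0 : S.index ≠ 0 := Subgroup.index_ne_zero_of_finite
  have h5 : S.index = Fintype.card F ^ 4 - 1 :=
    le_antisymm (h2 ▸ h3) (Nat.le_of_dvd (Nat.pos_of_ne_zero hidx0) h4)
  have h6 : MulAction.orbit R (⟨v, hv⟩ : {v : I4 → F // v ≠ 0}) = Set.univ := by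
    refine Set.eq_of_subset_of_ncard_le (Set.subset_univ _) ?_ Set.finite_univ
    rw [Set.ncard_univ, card_nz, ← h5, h2, Nat.card_coe_set_eq]
  refine ⟨?_, S.map R.subtype, Subgroup.map_subtype_le _, ?_, ?_, ?_⟩
  · intro w hw
    have h7 : (⟨w, hw⟩ : {v : I4 → F // v ≠ 0}) ∈ MulAction.orbit R (⟨v, hv⟩ : {v : I4 → F // v ≠ 0}) := by
      rw [h6]; trivial
    obtain ⟨g, hg⟩ := h7
    exact ⟨g, g.2, congrArg Subtype.val hg⟩
  · rintro _ ⟨g, hg, rfl⟩
    exact congrArg Subtype.val hg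
  · intro a ha hav
    exact ⟨⟨a, ha⟩, Subtype.ext hav, rfl⟩
  · rw [Subgroup.card_map_of_injective R.subtype_injective, ← h5, mul_comm, h1]

/-- **`R` is the whole of `Sp_2(q²)`**. -/
theorem card_of_dvd (hd : Fintype.card F ^ 4 - 1 ∣ Nat.card R) (h2 : 2 ∣ Nat.card R) :
    Fintype.card F ^ 2 * (Fintype.card F ^ 4 - 1) ≤ Nat.card R := by
  classical
  obtain ⟨v, hv⟩ : ∃ v : I4 → F, v ≠ 0 := ⟨Pi.single (Sum.inl 0) 1, by
    intro h
    have := congrFun h (Sum.inl 0)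
    rw [Pi.single_eq_same] at this
    exact one_ne_zero this⟩
  obtain ⟨htr, A, hAR, hA, hA', hcard⟩ := trans_of_dvd hK hsa halt hR hRK hd hv
  have hf2 : Fact (Nat.Prime 2) := ⟨Nat.prime_two⟩
  have h2A : 2 ∣ Nat.card A := by
    rw [hcard] at h2
    exact Nat.Coprime.dvd_of_dvd_mul_left (Nat.coprime_two_left.2 (odd_nz F)) h2
  obtain ⟨i, hi⟩ := exists_prime_orderOf_dvd_card' 2 h2A
  have hi1 : (i : GL I4 F) ≠ 1 := by
    intro h
    have h3 : i = 1 := Subtype.ext h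
    rw [h3, orderOf_one] at hi
    exact absurd hi (by norm_num)
  have hKfin : Finite K := Module.finite_of_finite F
  -- the elements `g_k`
  have h3 : ∀ k : {k : K // k ≠ 0}, ∃ g ∈ R, (g : Matrix I4 I4 F) *ᵥ v = ((k : K) : Matrix I4 I4 F) *ᵥ v := by
    intro k
    apply htr
    intro h
    apply k.2
    apply inj_one hK hv
    show ((k : K) : Matrix I4 I4 F) *ᵥ v = ((0 : K) : Matrix I4 I4 F) *ᵥ v
    rw [h]
    exact (Matrix.zero_mulVec v).symm
  choose g hgR hgv using h3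
  have h4 : ∀ k : {k : K // k ≠ 0}, g k * (i : GL I4 F) * (g k)⁻¹ ∈ A := by
    intro k
    apply hA' _ (R.mul_mem (R.mul_mem (hgR k) (hAR i.2)) (R.inv_mem (hgR k)))
    obtain ⟨y, hy, hky⟩ := hK.inv ((k : K) : Matrix I4 I4 F) (k : K).2 (fun h => k.2 (Subtype.ext h))
    have e1 : (((g k)⁻¹ : GL I4 F) : Matrix I4 I4 F) *ᵥ v = y *ᵥ v := by
      have e2 : v = ((g k : GL I4 F) : Matrix I4 I4 F) *ᵥ (y *ᵥ v) := by
        rw [Matrix.mulVec_mulVec, hRK _ (hgR k) y hy, ← Matrix.mulVec_mulVec, hgv k, Matrix.mulVec_mulVec,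
          hK.comm y hy _ (k : K).2, hky, Matrix.one_mulVec]
      conv_lhs => rw [e2]
      rw [Matrix.mulVec_mulVec, ← Units.val_mul, inv_mul_cancel, Units.val_one, Matrix.one_mulVec]
    have e3 : ((i : GL I4 F) : Matrix I4 I4 F) *ᵥ (y *ᵥ v) = y *ᵥ v := by
      rw [Matrix.mulVec_mulVec, hRK _ (hAR i.2) y hy, ← Matrix.mulVec_mulVec, hA _ i.2]
    rw [Units.val_mul, Units.val_mul, ← Matrix.mulVec_mulVec, e1, ← Matrix.mulVec_mulVec, e3, Matrix.mulVec_mulVec,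
      hRK _ (hgR k) y hy, ← Matrix.mulVec_mulVec, hgv k, Matrix.mulVec_mulVec, hK.comm y hy _ (k : K).2, hky,
      Matrix.one_mulVec]
  let φ : {k : K // k ≠ 0} → {a : A // a ≠ 1} := fun k => ⟨⟨g k * (i : GL I4 F) * (g k)⁻¹, h4 k⟩, by
    intro h
    apply hi1
    have h5 : g k * (i : GL I4 F) * (g k)⁻¹ = 1 := congrArg Subtype.val h
    exact conj_eq_one_iff.1 h5⟩
  have hφ : Function.Injective φ := by
    intro k l hkl
    have h5 : g k * (i : GL I4 F) * (g k)⁻¹ = g l * (i : GL I4 F) * (g l)⁻¹ :=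
      congrArg (fun x : {a : A // a ≠ 1} => ((x : A) : GL I4 F)) hkl
    have h6 : (i : GL I4 F) * ((g l)⁻¹ * g k) = ((g l)⁻¹ * g k) * i := by
      have h7 : g l * ((i : GL I4 F) * ((g l)⁻¹ * g k)) = g l * (((g l)⁻¹ * g k) * i) := by
        calc g l * ((i : GL I4 F) * ((g l)⁻¹ * g k)) = (g l * (i : GL I4 F) * (g l)⁻¹) * g k := by group
          _ = (g k * (i : GL I4 F) * (g k)⁻¹) * g k := by rw [h5]
          _ = _ := by group
      exact mul_left_cancel h7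
    have hm : (g l)⁻¹ * g k ∈ R := R.mul_mem (R.inv_mem (hgR l)) (hgR k)
    have h7 := fix_of_comm hK hsa halt (hR (hAR i.2)) (hR hm) (hRK _ (hAR i.2)) (hRK _ hm) hi1 h6 hv (hA _ i.2)
    have h8 : ((k : K) : Matrix I4 I4 F) *ᵥ v = ((l : K) : Matrix I4 I4 F) *ᵥ v := by
      rw [← hgv k, ← hgv l]
      conv_rhs => rw [← h7]
      rw [Matrix.mulVec_mulVec, ← Units.val_mul, mul_inv_cancel_left]
    exact Subtype.ext (inj_one hK hv h8)
  have h9 := Nat.card_le_card_of_injective φ hφ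
  have hc1 : Nat.card {k : K // k ≠ 0} = Fintype.card F ^ 2 - 1 := by
    have h3 := Set.ncard_add_ncard_compl ({0} : Set K)
    rw [Set.ncard_singleton, card_K hK] at h3
    have h4 : Nat.card {k : K // k ≠ 0} = ({0} : Set K)ᶜ.ncard := rfl
    omega
  have hc2 : Nat.card {a : A // a ≠ 1} = Nat.card A - 1 := by
    have h3 := Set.ncard_add_ncard_compl ({1} : Set A)
    rw [Set.ncard_singleton] at h3
    have h4 : Nat.card {a : A // a ≠ 1} = ({1} : Set A)ᶜ.ncard := rfl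
    omega
  rw [hc1, hc2] at h9
  have hq : 0 < Fintype.card F ^ 2 := pow_pos Fintype.card_pos 2
  have hA0 : 0 < Nat.card A := Nat.card_pos
  rw [hcard, mul_comm]
  exact Nat.mul_le_mul_left _ (by omega)

theorem no_four {x : GL I4 F} (hx : x ∈ R) (h4 : orderOf x = 4) : False := by
  have hf2 : Fact (Nat.Prime 2) := ⟨Nat.prime_two⟩
  have hzR : Subgroup.zpowers x ≤ R := Subgroup.zpowers_le.2 hx
  have hP : IsPGroup 2 (Subgroup.zpowers x) := by
    refine IsPGroup.of_card (n := 2) ?_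
    rw [Nat.card_zpowers, h4]
    norm_num
  let _ := vact (Subgroup.zpowers x)
  have hmod := hP.card_modEq_card_fixedPoints (I4 → F)
  obtain ⟨f, -, hf⟩ := FiniteField.card F 2
  have h1 : 2 ∣ Nat.card (I4 → F) := by
    rw [card_V, hf]
    exact dvd_pow (dvd_pow_self 2 f.pos.ne') (by norm_num)
  have h2 : 2 ∣ Nat.card (MulAction.fixedPoints (Subgroup.zpowers x) (I4 → F)) := (Nat.ModEq.dvd_iff hmod dvd_rfl).1 h1
  have h0 : (0 : I4 → F) ∈ MulAction.fixedPoints (Subgroup.zpowers x) (I4 → F) := fun g => Matrix.mulVec_zero _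
  have h3 : 1 < Nat.card (MulAction.fixedPoints (Subgroup.zpowers x) (I4 → F)) := by
    have : 0 < Nat.card (MulAction.fixedPoints (Subgroup.zpowers x) (I4 → F)) := by
      have : Nonempty (MulAction.fixedPoints (Subgroup.zpowers x) (I4 → F)) := ⟨⟨0, h0⟩⟩
      exact Nat.card_pos
    have := Nat.le_of_dvd this h2
    omega
  have h4' := Finite.one_lt_card_iff_nontrivial.1 h3
  obtain ⟨⟨v, hv⟩, hne⟩ := exists_ne (⟨0, h0⟩ : MulAction.fixedPoints (Subgroup.zpowers x) (I4 → F))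
  have h5 : (x : Matrix I4 I4 F) *ᵥ v = v := hv ⟨x, Subgroup.mem_zpowers x⟩
  have h6 := stab_sq hK hsa halt (hR hx) (hRK x hx) (fun h => hne (Subtype.ext h)) h5
  have h7 := orderOf_dvd_of_pow_eq_one h6
  rw [h4] at h7
  exact absurd (Nat.le_of_dvd (by norm_num) h7) (by norm_num)

end card

theorem mem_of_sq {G : Type*} [Group G] {H : Subgroup G} {x : G} {n : ℕ} (hx : orderOf x = n) (hn : Odd n)
    (h : x ^ 2 ∈ H) : x ∈ H := by
  obtain ⟨k, hk⟩ := hn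
  have h1 : x ^ n = 1 := hx ▸ pow_orderOf_eq_one x
  have h2 : (x ^ 2) ^ (k + 1) = x := by
    rw [← pow_mul, show 2 * (k + 1) = n + 1 by omega, pow_succ, h1, one_mul]
  rw [← h2]
  exact H.pow_mem h _

/-- **A subgroup of `Sp_2(q²).2` with elements of orders `n₁`, `n₂`, 4, `q⁴ - 1 ∣ lcm n₁ n₂`.** -/
theorem ext_top (hK : IsFieldSubalgebra 2 K) (hsa : IsSelfAdjointFor (sympForm 2 F) K)
    (halt : ∀ k ∈ K, ∀ v : (I4 → F), (sympForm 2 F) (k *ᵥ v) v = 0) {R : Subgroup (GL I4 F)}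
    (hR : R ≤ subalgebraNormalizer K ⊓ spGL 2 F) {n₁ n₂ : ℕ} (hn₁ : Odd n₁) (hn₂ : Odd n₂)
    (hn : Fintype.card F ^ 4 - 1 ∣ Nat.lcm n₁ n₂) (h1 : ∃ x ∈ R, orderOf x = n₁) (h2 : ∃ x ∈ R, orderOf x = n₂)
    (h4 : ∃ x ∈ R, orderOf x = 4) : R = subalgebraNormalizer K ⊓ spGL 2 F := by
  classical
  obtain ⟨N, hN⟩ : ∃ N : Subgroup (GL I4 F), N = subalgebraNormalizer K ⊓ spGL 2 F := ⟨_, rfl⟩
  have hNA : H912.NormAlg N K := fun g hg a ha => (((hN ▸ hg : g ∈ subalgebraNormalizer K ⊓ spGL 2 F).1) a).mp ha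
  let _ : Field K := (H912.isField_of_fieldSub hK).toField
  have hfd : Module.Finite F K := inferInstance
  have hKfin : Finite K := Module.finite_of_finite F
  have hgal : IsGalois F K := inferInstance
  let ρ : N →* (K ≃ₐ[F] K) :=
    { toFun := fun g => H912.conjSub hNA g
      map_one' := by
        apply AlgEquiv.ext
        intro x
        apply Subtype.ext
        rw [H912.conjSub_coe]
        simp
      map_mul' := by
        intro g h
        apply AlgEquiv.ext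
        intro x
        apply Subtype.ext
        rw [AlgEquiv.mul_apply, H912.conjSub_coe, H912.conjSub_coe, H912.conjSub_coe]
        simp only [Subgroup.coe_mul, _root_.mul_inv_rev, Units.val_mul, Matrix.mul_assoc] }
  have hc2 : Nat.card (K ≃ₐ[F] K) = 2 := by
    rw [IsGalois.card_aut_eq_finrank]
    exact hK.finrank_eq
  have hidx : Nat.card ρ.range ∣ 2 := (Subgroup.card_subgroup_dvd_card ρ.range).trans (dvd_of_eq hc2)
  obtain ⟨C, hC⟩ : ∃ C : Subgroup (GL I4 F), C = ρ.ker.map N.subtype := ⟨_, rfl⟩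
  have hCN : C ≤ N := hC ▸ Subgroup.map_subtype_le _
  have hCs : C ≤ spGL 2 F := fun g hg => (hN ▸ hCN hg : g ∈ subalgebraNormalizer K ⊓ spGL 2 F).2
  have hCK : ∀ c ∈ C, ∀ k ∈ K, (c : Matrix I4 I4 F) * k = k * c := by
    rw [hC]
    rintro _ ⟨g, hg, rfl⟩ k hk
    have h4 : ρ g ⟨k, hk⟩ = ⟨k, hk⟩ := by rw [MonoidHom.mem_ker.1 hg]; rfl
    have h5 : ((g : GL I4 F) : Matrix I4 I4 F) * k * (((g : GL I4 F)⁻¹ : GL I4 F) : Matrix I4 I4 F) = k :=
      congrArg Subtype.val h4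
    show ((g : GL I4 F) : Matrix I4 I4 F) * k = k * ((g : GL I4 F) : Matrix I4 I4 F)
    conv_rhs => rw [← h5]
    rw [Matrix.mul_assoc _ (((g : GL I4 F)⁻¹ : GL I4 F) : Matrix I4 I4 F), ← Units.val_mul, inv_mul_cancel, Units.val_one,
      Matrix.mul_one]
  have hRN : R ≤ N := hN ▸ hR
  have hsq : ∀ x ∈ R, x ^ 2 ∈ C := by
    intro x hx
    rw [hC]
    refine ⟨⟨x, hRN hx⟩ ^ 2, ?_, rfl⟩
    show ρ (⟨x, hRN hx⟩ ^ 2) = 1
    rw [map_pow]
    have h5 := pow_card_eq_one' (x := ρ ⟨x, hRN hx⟩)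
    rwa [hc2] at h5
  have hC0 : Nat.card C ≤ Fintype.card F ^ 2 * (Fintype.card F ^ 4 - 1) := by
    refine Nat.le_of_dvd ?_ (cent_card hK hsa halt hCs hCK)
    refine Nat.mul_pos (pow_pos Fintype.card_pos 2) ?_
    obtain ⟨k, hk⟩ := odd_nz F
    omega
  have hR0K : ∀ c ∈ R ⊓ C, ∀ k ∈ K, (c : Matrix I4 I4 F) * k = k * c := fun c hc => hCK c hc.2
  have hord : ∀ {x : GL I4 F} {n : ℕ}, x ∈ R ⊓ C → orderOf x = n → n ∣ Nat.card (R ⊓ C : Subgroup (GL I4 F)) := by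
    intro x n hx hxn
    rw [← hxn]
    exact (Subgroup.orderOf_mk x hx) ▸ orderOf_dvd_natCard (⟨x, hx⟩ : (R ⊓ C : Subgroup (GL I4 F)))
  obtain ⟨x₁, hx₁, hx₁o⟩ := h1
  obtain ⟨x₂, hx₂, hx₂o⟩ := h2
  obtain ⟨x₄, hx₄, hx₄o⟩ := h4
  have hd1 : Fintype.card F ^ 4 - 1 ∣ Nat.card (R ⊓ C : Subgroup (GL I4 F)) :=
    hn.trans (Nat.lcm_dvd (hord ⟨hx₁, mem_of_sq hx₁o hn₁ (hsq x₁ hx₁)⟩ hx₁o)
      (hord ⟨hx₂, mem_of_sq hx₂o hn₂ (hsq x₂ hx₂)⟩ hx₂o))
  have hd2 : 2 ∣ Nat.card (R ⊓ C : Subgroup (GL I4 F)) := by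
    refine hord (x := x₄ ^ 2) ⟨R.pow_mem hx₄ 2, hsq x₄ hx₄⟩ ?_
    rw [orderOf_pow' x₄ (by norm_num), hx₄o]
    norm_num
  have hge := card_of_dvd hK hsa halt (inf_le_right.trans hCs) hR0K hd1 hd2
  have heq : R ⊓ C = C := Subgroup.eq_of_le_of_card_ge inf_le_right (hC0.trans hge)
  have hCR : C ≤ R := inf_eq_right.1 heq
  have hx4C : x₄ ∉ C := fun h => no_four hK hsa halt hCs hCK h hx₄o
  have hcN : Nat.card N ≤ 2 * Nat.card C := by
    rw [hC, Subgroup.card_map_of_injective N.subtype_injective, ← Subgroup.card_mul_index ρ.ker, Subgroup.index_ker,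
      mul_comm]
    exact Nat.mul_le_mul_right _ (Nat.le_of_dvd (by norm_num) hidx)
  have hcR : 2 * Nat.card C ≤ Nat.card R := by
    obtain ⟨c, hc⟩ := Subgroup.card_dvd_of_le hCR
    have hc0 : c ≠ 0 := by
      rintro rfl
      have : 0 < Nat.card R := Nat.card_pos
      omega
    have hc1 : c ≠ 1 := by
      rintro rfl
      rw [mul_one] at hc
      exact hx4C (Subgroup.eq_of_le_of_card_ge hCR hc.le ▸ hx₄)
    rw [hc, mul_comm]
    exact Nat.mul_le_mul_left _ (by omega)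
  rw [← hN]
  exact Subgroup.eq_of_le_of_card_ge hRN (hcN.trans hcR)

end Cfsg.Agent.H901.EightExt
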