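import Cfsg.Agent.H901.Der.EightExt
import Cfsg.Agent.H901.SaxSpRow
import Cfsg.Agent.H955.QElt
import Cfsg.Agent.S0300
import Cfsg.Agent.S0806
import Cfsg.Agent.LieClassical.OrthCenter
import Cfsg.Agent.SmallSimple.PSLTwoPart

/-!
# Subgroups of `O_4^-(8) < Sp_4(8)` (helper901, for S3502)
-/

set_option autoImplicit false
set_option linter.unusedSectionVars false

namespace Cfsg.Agent.H901.EightMinus

open Matrix Module Cfsg Cfsg.Geo Cfsg.Agent.H955
open Cfsg.Agent.LieClassical.OrthCore (Nondeg O)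
open scoped MatrixGroups

/-- `PSL_2(2^f)` has no elements of order four. -/
theorem psl_four {K : Type*} [Field K] [CharP K 2] {x : ProjectiveSpecialLinearGroup (Fin 2) K} (hx : x ^ 4 = 1) :
    x ^ 2 = 1 := by
  have h2 : (2 : K) = 0 := CharTwo.two_eq_zero
  obtain ⟨g, rfl⟩ := QuotientGroup.mk_surjective x
  have h1 : g ^ 4 ∈ Subgroup.center (SpecialLinearGroup (Fin 2) K) := by
    rw [← QuotientGroup.eq_one_iff]
    exact hx
  rw [Matrix.SpecialLinearGroup.mem_center_iff] at h1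
  obtain ⟨r, hr, hr4⟩ := h1
  have hr1 : r = 1 := by
    have h3 : r ^ 2 = 1 := by simpa using hr
    have h4 : (r - 1) ^ 2 = 0 := by
      calc (r - 1) ^ 2 = r ^ 2 - 1 - 2 * (r - 1) := by ring
        _ = 0 := by rw [h3, h2]; ring
    exact sub_eq_zero.1 (pow_eq_zero_iff (by norm_num : (2 : ℕ) ≠ 0) |>.1 h4)
  rw [hr1] at hr4
  have h5 : (g : Matrix (Fin 2) (Fin 2) K) ^ 4 = 1 := by
    rw [← Matrix.SpecialLinearGroup.coe_pow, ← hr4]
    simp
  have hdet := g.2
  obtain ⟨A, hA⟩ : ∃ A : Matrix (Fin 2) (Fin 2) K, A = (g : Matrix (Fin 2) (Fin 2) K) := ⟨_, rfl⟩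
  have hdA : A.det = 1 := hA ▸ hdet
  rw [← hA] at h5
  have h2M : ∀ B : Matrix (Fin 2) (Fin 2) K, B + B = 0 := fun B => by rw [← two_smul K, h2, zero_smul]
  have hCH : A ^ 2 = A.trace • A + 1 := by
    rw [Matrix.det_fin_two] at hdA
    ext i j
    fin_cases i <;> fin_cases j <;> simp [sq, Matrix.mul_apply, Fin.sum_univ_two, Matrix.trace_fin_two]
    · linear_combination -hdA - h2
    · ring
    · ring
    · linear_combination -hdA - h2
  have h6 : A.trace ^ 2 • A ^ 2 = 0 := by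
    have e1 : A ^ 4 = A.trace ^ 2 • A ^ 2 + (A.trace • A + A.trace • A) + 1 := by
      have e2 : A ^ 4 = A ^ 2 * A ^ 2 := by rw [← pow_add]
      rw [e2]
      conv_lhs => rw [hCH]
      rw [add_mul, mul_add, one_mul, mul_one, Matrix.smul_mul, Matrix.mul_smul, smul_smul, sq A, sq A.trace]
      abel
    rw [h5, h2M, add_zero] at e1
    exact (add_eq_right.1 e1.symm)
  have h7 : A.trace = 0 := by
    have e1 : A.trace ^ 2 • A ^ 4 = 0 := by
      have e2 : A ^ 4 = A ^ 2 * A ^ 2 := by rw [← pow_add]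
      rw [e2, ← Matrix.smul_mul, h6, zero_mul]
    rw [h5] at e1
    have e2 := congrFun (congrFun e1 0) 0
    simpa using e2
  have h8 : A ^ 2 = 1 := by rw [hCH, h7, zero_smul, zero_add]
  have h9 : g ^ 2 = 1 := by
    apply Subtype.ext
    rw [Matrix.SpecialLinearGroup.coe_pow, ← hA, h8]
    rfl
  rw [← QuotientGroup.mk_pow, h9]
  rfl

theorem top_of {G : Type*} [Group G] [Finite G] {X : Subgroup G} {K : Type*} [Field K] [Fintype K] [CharP K 2]
    (hK4 : 4 ≤ Fintype.card K) (e : X ≃* ProjectiveSpecialLinearGroup (Fin 2) K)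
    (hG : Nat.card G = 2 * Nat.card (ProjectiveSpecialLinearGroup (Fin 2) K))
    {R : Subgroup G} {n₁ n₂ : ℕ} (hn₁ : Odd n₁) (hn₂ : Odd n₂)
    (hn : Fintype.card K ^ 2 - 1 ∣ Nat.lcm n₁ n₂) (h1 : ∃ x ∈ R, orderOf x = n₁) (h2 : ∃ x ∈ R, orderOf x = n₂)
    (h4 : ∃ x ∈ R, orderOf x = 4) : R = ⊤ := by
  obtain ⟨f, -, hf⟩ := FiniteField.card K 2
  have heven : Even (Fintype.card K) := by rw [hf]; exact Even.pow_of_ne_zero even_two f.pos.ne'
  have hcP := SmallSimple.PSLTwoPart.card_psl_two_even heven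
  have hcX : Nat.card X = Nat.card (ProjectiveSpecialLinearGroup (Fin 2) K) := Nat.card_congr e.toEquiv
  have hX0 : 0 < Nat.card X := Nat.card_pos
  have hidx : X.index = 2 := by
    have h3 := X.card_mul_index
    rw [hG, ← hcX, mul_comm] at h3
    exact Nat.eq_of_mul_eq_mul_right hX0 h3
  have hXn : X.Normal := Subgroup.normal_of_index_eq_two hidx
  have hsq : ∀ x : G, x ^ 2 ∈ X := fun x => Subgroup.sq_mem_of_index_two hidx x
  obtain ⟨x₁, hx₁, hx₁o⟩ := h1
  obtain ⟨x₂, hx₂, hx₂o⟩ := h2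
  obtain ⟨x₄, hx₄, hx₄o⟩ := h4
  have hord : ∀ {x : G} {n : ℕ}, x ∈ R ⊓ X → orderOf x = n → n ∣ Nat.card (R ⊓ X : Subgroup G) := by
    intro x n hx hxn
    rw [← hxn]
    exact (Subgroup.orderOf_mk x hx) ▸ orderOf_dvd_natCard (⟨x, hx⟩ : (R ⊓ X : Subgroup G))
  have hd1 : Fintype.card K ^ 2 - 1 ∣ Nat.card (R ⊓ X : Subgroup G) :=
    hn.trans (Nat.lcm_dvd (hord ⟨hx₁, EightExt.mem_of_sq hx₁o hn₁ (hsq x₁)⟩ hx₁o)
      (hord ⟨hx₂, EightExt.mem_of_sq hx₂o hn₂ (hsq x₂)⟩ hx₂o))
  have hd2 : 2 ∣ Nat.card (R ⊓ X : Subgroup G) := by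
    refine hord (x := x₄ ^ 2) ⟨R.pow_mem hx₄ 2, hsq x₄⟩ ?_
    rw [orderOf_pow' x₄ (by norm_num), hx₄o]
    norm_num
  -- the index of `R ⊓ X` in `X`
  have hXR : X ≤ R := by
    by_contra hno
    have h3 : (R.subgroupOf X).map e.toMonoidHom ≠ ⊤ := by
      intro h
      apply hno
      have h5 : R.subgroupOf X = ⊤ := by
        rw [← Subgroup.comap_map_eq_self_of_injective (f := e.toMonoidHom) e.injective (R.subgroupOf X), h,
          Subgroup.comap_top]
      exact Subgroup.subgroupOf_eq_top.1 h5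
    have hnot : Fintype.card K ∉ ({2, 3, 5, 7, 9, 11} : Finset ℕ) := by
      intro h
      simp only [Finset.mem_insert, Finset.mem_singleton] at h
      obtain ⟨t, ht⟩ := heven
      omega
    have h5 := (S0806.result (F := K) rfl hnot).1 _ h3
    have h6 : ((R.subgroupOf X).map e.toMonoidHom).index = (R.subgroupOf X).index := by
      rw [Subgroup.index_map_of_bijective e.bijective]
    rw [h6] at h5
    have h7 := (R.subgroupOf X).card_mul_index
    have h8 : Nat.card (R.subgroupOf X) = Nat.card (R ⊓ X : Subgroup G) := by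
      rw [← Subgroup.card_map_of_injective X.subtype_injective (K := R.subgroupOf X), Subgroup.subgroupOf_map_subtype]
    have hcop : Nat.Coprime (Fintype.card K ^ 2 - 1) 2 := by
      rw [Nat.coprime_two_right]
      exact Nat.Even.sub_odd (pow_pos Fintype.card_pos 2) (heven.pow_of_ne_zero (by norm_num)) odd_one
    have h9 : (Fintype.card K ^ 2 - 1) * 2 ∣ Nat.card (R ⊓ X : Subgroup G) := hcop.mul_dvd_of_dvd_of_dvd hd1 hd2
    obtain ⟨c, hc⟩ := h9
    rw [h8, hcX, hcP, hc] at h7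
    have hpos : 0 < Fintype.card K ^ 2 - 1 := by
      have : 4 ^ 2 ≤ Fintype.card K ^ 2 := Nat.pow_le_pow_left hK4 2
      omega
    have h10 : 2 * c * (R.subgroupOf X).index = Fintype.card K := by
      apply Nat.eq_of_mul_eq_mul_left hpos
      rw [mul_comm (Fintype.card K ^ 2 - 1) (Fintype.card K), ← h7]
      ring
    have hc0 : 0 < c := by
      rcases Nat.eq_zero_or_pos c with h | h
      · rw [h] at h10
        have := Fintype.card_pos (α := K)
        omega
      · exact h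
    nlinarith
  have hx4X : x₄ ∉ X := by
    intro h
    have h3 : (e ⟨x₄, h⟩) ^ 4 = 1 := by
      rw [← map_pow, ← map_one e]
      congr 1
      apply Subtype.ext
      show x₄ ^ 4 = 1
      rw [← hx₄o, pow_orderOf_eq_one]
    have h5 := psl_four h3
    rw [← map_pow, ← map_one e] at h5
    have h6 : x₄ ^ 2 = 1 := congrArg Subtype.val (e.injective h5)
    have h7 := orderOf_dvd_of_pow_eq_one h6
    rw [hx₄o] at h7
    exact absurd (Nat.le_of_dvd (by norm_num) h7) (by norm_num)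
  have hR : R.index ∣ 2 := hidx ▸ Subgroup.index_dvd_of_le hXR
  rcases (Nat.dvd_prime Nat.prime_two).1 hR with h | h
  · exact Subgroup.index_eq_one.1 h
  · exfalso
    have h3 := R.card_mul_index
    have h5 := X.card_mul_index
    rw [h] at h3
    rw [hidx] at h5
    have h6 : X = R := Subgroup.eq_of_le_of_card_ge hXR (by omega)
    exact hx4X (h6 ▸ hx₄)

section Minus

open Cfsg.Agent.LieClassical.OrthTrans Cfsg.Agent.LieClassical.OrthFinite Cfsg.Agent.LieClassical.QuadForms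
open QuadraticMap

universe u

variable {F : Type u} [Field F] [Fintype F] [CharP F 2]

theorem minus_top {Q : QuadraticForm F (Fin 2 ⊕ Fin 2 → F)} (hQ : Nondeg Q) (hP : ¬ IsPlus Q)
    {R : Subgroup (GL (Fin 2 ⊕ Fin 2) F)} (hR : R ≤ Cfsg.isometryGroup F (⇑Q)) {n₁ n₂ : ℕ} (hn₁ : Odd n₁) (hn₂ : Odd n₂)
    (hn : Fintype.card F ^ 4 - 1 ∣ Nat.lcm n₁ n₂) (h1 : ∃ x ∈ R, orderOf x = n₁) (h2 : ∃ x ∈ R, orderOf x = n₂)
    (h4 : ∃ x ∈ R, orderOf x = 4) : R = Cfsg.isometryGroup F (⇑Q) := by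
  classical
  have h20 : (2 : F) = 0 := CharTwo.two_eq_zero
  obtain ⟨a, b, hab⟩ := exists_aniso_coeff F
  obtain ⟨e, he⟩ := exists_minus_equiv hab 1 Q hQ (by simp) hP
  -- the quadratic extension
  obtain ⟨f, -, hf⟩ := FiniteField.card F 2
  have hfF : (f : ℕ) ≠ 0 := f.pos.ne'
  let K := GaloisField 2 (2 * f)
  have hKfin : Finite K := inferInstance
  let _ : Fintype K := Fintype.ofFinite K
  have hcK : Fintype.card K = Fintype.card F ^ 2 := by
    rw [← Nat.card_eq_fintype_card, GaloisField.card 2 (2 * f) (by omega), hf, ← pow_mul, mul_comm]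
  obtain ⟨ε⟩ := S0300.result (F := F) (K := K) rfl hcK a b hab
  have hε : isometryGroup F ⇑Q ≃* isometryGroup F (quadFormMinus 1 F a b) := by
    have e1 : isometryGroup F ⇑(minusForm 1 F a b) ≃* O (minusForm 1 F a b) := isometryEquiv (minusForm 1 F a b)
    rw [coe_minusForm] at e1
    exact ((isometryEquiv Q).trans (OEquiv e he)).trans e1.symm
  have hnd := nondeg_minus 1 hab
  have hcen : Subgroup.center (Omega F (quadFormMinus 1 F a b)) = ⊥ := by
    have h3 := LieClassical.OrthCenter.center_omega_eq_bot_char_two (Q := minusForm 1 F a b) h20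
      ⟨fun x hx => hnd x hx, fun x hx => hnd x fun y => by rw [polar_comm]; exact hx y⟩ (by simp)
      ⟨Pi.single (Sum.inl (Sum.inl 0)) 1, by
        intro h
        have := congrFun h (Sum.inl (Sum.inl 0))
        rw [Pi.single_eq_same] at this
        exact one_ne_zero this, by
        rw [coe_minusForm]
        simp [quadFormMinus]⟩
    rw [coe_minusForm] at h3
    exact h3
  let e2 : Omega F (quadFormMinus 1 F a b) ≃* POmega F (quadFormMinus 1 F a b) :=
    (QuotientGroup.quotientBot.symm).trans (QuotientGroup.quotientMulEquivOfEq hcen.symm)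
  have hKchar : CharP K 2 := inferInstance
  have hcG : Nat.card (isometryGroup F (quadFormMinus 1 F a b)) =
      2 * Nat.card (ProjectiveSpecialLinearGroup (Fin 2) K) := by
    have heven : Even (Fintype.card K) := by
      rw [hcK, hf]
      exact (Even.pow_of_ne_zero even_two hfF).pow_of_ne_zero (by norm_num)
    rw [SmallSimple.PSLTwoPart.card_psl_two_even heven, hcK]
    have h3 := S0288.result (F := F) rfl 2 (by norm_num) a b hab
    rw [show 2 - 1 = 1 from rfl] at h3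
    rw [h3, Finset.prod_range_one]
    have hq : 1 ≤ Fintype.card F ^ 2 := Nat.one_le_pow _ _ Fintype.card_pos
    obtain ⟨t, ht⟩ : ∃ t, Fintype.card F ^ 2 = t + 1 := ⟨Fintype.card F ^ 2 - 1, by omega⟩
    have h5 : (t + 1) ^ 2 - 1 = (t + 2) * t := by
      have : (t + 1) ^ 2 = (t + 2) * t + 1 := by ring
      rw [this, Nat.add_sub_cancel]
    norm_num
    rw [ht, h5, Nat.add_sub_cancel]
    ring
  have hmap : ∀ n, (∃ x ∈ R, orderOf x = n) → ∃ x ∈ (R.subgroupOf (Cfsg.isometryGroup F ⇑Q)).map hε.toMonoidHom,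
      orderOf x = n := by
    rintro n ⟨x, hx, hxn⟩
    refine ⟨hε ⟨x, hR hx⟩, ⟨⟨x, hR hx⟩, hx, rfl⟩, ?_⟩
    rw [MulEquiv.orderOf_eq, Subgroup.orderOf_mk, hxn]
  have h5 := top_of (X := Omega F (quadFormMinus 1 F a b)) (K := K)
    (by
      rw [hcK]
      have : 2 ^ 2 ≤ Fintype.card F ^ 2 := Nat.pow_le_pow_left Fintype.one_lt_card 2
      omega)
    (e2.trans ε) hcG hn₁ hn₂ (by rw [hcK, ← pow_mul]; exact hn) (hmap _ h1) (hmap _ h2) (hmap _ h4)
  have h6 : R.subgroupOf (Cfsg.isometryGroup F ⇑Q) = ⊤ := by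
    rw [← Subgroup.comap_map_eq_self_of_injective (f := hε.toMonoidHom) hε.injective
      (R.subgroupOf (Cfsg.isometryGroup F ⇑Q)), h5, Subgroup.comap_top]
  exact le_antisymm hR (Subgroup.subgroupOf_eq_top.1 h6)

end Minus

end Cfsg.Agent.H901.EightMinus
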