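import Cfsg.Agent.H901.Der.EightMinus
import Cfsg.Agent.H292.SpCen

/-!
# Proper subgroups of the exceptional maximal subgroups of `PSp_4(8)` (helper901, for S3502)
-/

set_option autoImplicit false

namespace Cfsg.Agent.H901.EightSub

open Matrix Module Cfsg Cfsg.Geo Cfsg.Agent.H901.SaxSp Cfsg.Agent.H876
open Cfsg.Agent.H262.El (pre pre_le pre_mono mem_pre spToGL_injective)
open Cfsg.Agent.ClassicalGeometry.SympBasic
open scoped MatrixGroups

universe u

/-- **A subgroup of `O_4^-(q)` or `Sp_2(q²).2` (`q` even) with elements of orders `n₁`, `n₂`, `4` such that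
`q⁴ - 1 ∣ lcm n₁ n₂` is not proper.** -/
theorem sub_false {F : Type u} [Field F] [Fintype F] [CharP F 2] {n₁ n₂ : ℕ} (hn₁ : Odd n₁) (hn₂ : Odd n₂)
    (hn : Fintype.card F ^ 4 - 1 ∣ Nat.lcm n₁ n₂) {M : Subgroup (PSp 2 F)}
    (h : InOMinus 2 F (pre M) ∨ InExt 2 F (pre M)) {R : Subgroup (PSp 2 F)} (hR : R < M)
    (h1 : ∃ x ∈ R, orderOf x = n₁) (h2 : ∃ x ∈ R, orderOf x = n₂) (h4 : ∃ x ∈ R, orderOf x = 4) : False := by
  have hcen := H292.SpCen.center_eq_bot (F := F) 2
  have hinj : Function.Injective (QuotientGroup.mk : Matrix.symplecticGroup (Fin 2) F → PSp 2 F) := by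
    intro A B hAB
    have h3 := QuotientGroup.eq.1 hAB
    rw [hcen, Subgroup.mem_bot, inv_mul_eq_one] at h3
    exact h3
  have hmap : ∀ n, (∃ x ∈ R, orderOf x = n) → ∃ x ∈ pre R, orderOf x = n := by
    rintro n ⟨x, hx, hxn⟩
    obtain ⟨A, rfl⟩ := QuotientGroup.mk_surjective x
    refine ⟨spToGL 2 F A, mem_pre.2 hx, ?_⟩
    rw [orderOf_injective _ spToGL_injective, ← hxn]
    exact (orderOf_injective (QuotientGroup.mk' (Subgroup.center (Matrix.symplecticGroup (Fin 2) F))) hinj A).symm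
  have hpre : pre R ≤ pre M := pre_mono hR.le
  have hne : pre R ≠ pre M := by
    intro heq
    apply hR.ne
    ext x
    obtain ⟨A, rfl⟩ := QuotientGroup.mk_surjective x
    rw [← mem_pre, ← mem_pre, heq]
  rcases h with ⟨-, -, Q, hpol, hnP, hQe⟩ | ⟨-, K, hK, hsa, halt, hKe⟩
  · have hnd : Cfsg.Agent.LieClassical.OrthCore.Nondeg Q := by
      intro x hx
      apply eq_zero_of_forall_sympForm_right
      intro y
      rw [← hpol]
      exact hx y
    have h3 := EightMinus.minus_top hnd hnP (hpre.trans hQe) hn₁ hn₂ hn (hmap _ h1) (hmap _ h2) (hmap _ h4)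
    exact hne (le_antisymm hpre (h3 ▸ hQe))
  · have h3 := EightExt.ext_top hK hsa halt (hpre.trans (le_inf hKe (pre_le M))) hn₁ hn₂ hn (hmap _ h1) (hmap _ h2)
      (hmap _ h4)
    exact hne (le_antisymm hpre (h3 ▸ le_inf hKe (pre_le M)))

theorem eight_sub {F : Type u} [Field F] [Fintype F] (h8 : Fintype.card F = 8) {M : Subgroup (PSp 2 F)}
    (h : InOMinus 2 F (pre M) ∨ InExt 2 F (pre M)) {R : Subgroup (PSp 2 F)} (hR : R < M)
    (h63 : ∃ x ∈ R, orderOf x = 63) (h65 : ∃ x ∈ R, orderOf x = 65) (h4 : ∃ x ∈ R, orderOf x = 4) : False := by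
  have hp : CharP F 2 := by
    obtain ⟨p, hp⟩ := CharP.exists F
    obtain ⟨n, hpp, hn⟩ := FiniteField.card F p
    have h1 : p ∣ 8 := by
      rw [← h8, hn]
      exact dvd_pow_self p n.pos.ne'
    have h2 : p = 2 := by
      have h3 : p ∣ 2 ^ 3 := h1
      exact (Nat.prime_dvd_prime_iff_eq hpp Nat.prime_two).1 (hpp.dvd_of_dvd_pow h3)
    exact h2 ▸ hp
  refine sub_false (n₁ := 63) (n₂ := 65) (by decide) (by decide) ?_ h hR h63 h65 h4
  rw [h8]
  norm_num

end Cfsg.Agent.H901.EightSub
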